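import Mathlib
import Cfsg.Agent.Lib.HHB.Orth
import Cfsg.Agent.Lib.OddLocal.FitOdd

/-!
# Hall--Higman Theorem B: the main reduction

`Q` is a `q`-group, `X` a `p`-element in characteristic `p` normalizing the image of `Q`, and the
last step `y` of the induced automorphism acts nontrivially, with `C_Q(y)` central in `Q`.
-/

set_option autoImplicit false

namespace Cfsg.Agent.Lib.HHB

open Module Finset
open Cfsg.Agent.Lib.PGroup.HH Cfsg.Agent.Lib.OddLocal

variable {K W S : Type*} [Field K] [AddCommGroup W] [Module K W] [AddCommGroup S] [Module K S]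
variable {Q : Type*} [Group Q]

theorem exists_ker_of_pow_eq_zero {V : Type*} [AddCommGroup V] [Module K V] [Nontrivial V] {t : Module.End K V} {k : ℕ}
    (h : t ^ k = 0) : ∃ v, v ≠ 0 ∧ t v = 0 := by
  obtain ⟨v₀, hv₀⟩ := exists_ne (0 : V)
  have hex : ∃ j, (t ^ j) v₀ = 0 := ⟨k, by rw [h]; rfl⟩
  classical
  have hj := Nat.find_spec hex
  have hmin := fun m (hm : m < Nat.find hex) => Nat.find_min hex hm
  rcases hj0 : Nat.find hex with _ | j
  · rw [hj0] at hj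
    exact absurd (by simpa using hj) hv₀
  · refine ⟨(t ^ j) v₀, hmin j (by omega), ?_⟩
    rw [hj0] at hj
    rw [pow_succ'] at hj
    exact hj

theorem exists_arith {p M i : ℕ} (hp : p.Prime) (hM : 0 < M) (hi0 : 0 < i) (hi : i < p ^ M) :
    ∃ k, (i * k) % p ^ M = p ^ (M - 1) % p ^ M := by
  obtain ⟨c, u, hu, rfl⟩ := Nat.exists_eq_pow_mul_and_not_dvd hi0.ne' p hp.ne_one
  have hcM : c < M := by
    have h1 : p ^ c ≤ p ^ c * u := Nat.le_mul_of_pos_right _ (Nat.pos_of_ne_zero (by rintro rfl; simp at hi0))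
    exact (Nat.pow_lt_pow_iff_right hp.one_lt).mp (lt_of_le_of_lt h1 hi)
  have hcop : Nat.Coprime u (p ^ M) := Nat.Coprime.pow_right _ ((Nat.Prime.coprime_iff_not_dvd hp).mpr hu).symm
  have h1 : 1 < p ^ M := Nat.one_lt_pow hM.ne' hp.one_lt
  obtain ⟨u', hu'⟩ := Nat.exists_mul_mod_eq_one_of_coprime hcop h1
  refine ⟨p ^ (M - 1 - c) * u', ?_⟩
  have e : p ^ c * u * (p ^ (M - 1 - c) * u') = p ^ (M - 1) * (u * u') := by
    have : p ^ (M - 1) = p ^ c * p ^ (M - 1 - c) := by rw [← pow_add]; congr 1; omega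
    rw [this]; ring
  rw [e]
  have h2 : (u * u') ≡ 1 [MOD p ^ M] := by
    unfold Nat.ModEq
    rw [hu'.2, Nat.mod_eq_of_lt h1]
  have h3 := h2.mul_left (p ^ (M - 1))
  rw [mul_one] at h3
  exact h3

theorem apply_pow_eq (ρ : Q →* Module.End K S) {A A' : Module.End K S} {θ : MulAut Q}
    (hA : ∀ g, A * ρ g * A' = ρ (θ g)) (i : ℕ) (g : Q) : A ^ i * ρ g * A' ^ i = ρ ((θ ^ i) g) := by
  induction i generalizing g with
  | zero => simp
  | succ i ih =>
    rw [pow_succ, pow_succ']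
    calc A ^ i * A * ρ g * (A' * A' ^ i) = A ^ i * (A * ρ g * A') * A' ^ i := by simp only [mul_assoc]
      _ = A ^ i * ρ (θ g) * A' ^ i := by rw [hA]
      _ = ρ ((θ ^ i * θ) g) := by rw [ih]; rfl
      _ = ρ ((θ ^ (i + 1)) g) := by rw [pow_succ]

section CritQuot

variable [Fintype Q] [IsAlgClosed K] [FiniteDimensional K S] [Nontrivial S] {p : ℕ} [hp : Fact p.Prime] [CharP K p]

/-- The critical theorem in the presence of a kernel. -/
theorem crit_on_S (ρ : Q →* Module.End K S)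
    (hirr : ∀ W : Submodule K S, (∀ g, W.map (ρ g) ≤ W) → W = ⊥ ∨ W = ⊤) (hN : (Fintype.card Q : K) ≠ 0)
    (A A' : Module.End K S) (h1 : A * A' = 1) (h2 : A' * A = 1) (θ : MulAut Q) {M : ℕ} (hM : 0 < M)
    (hθ : θ ^ p ^ M = 1) (hA : ∀ g, A * ρ g * A' = ρ (θ g)) (hAp : A ^ p ^ M = 1) (hA1 : A ≠ 1)
    (hscal : ∀ g, ρ ((θ ^ p ^ (M - 1)) g) = ρ g → ∃ μ : K, ρ g = μ • 1) (s : ℕ) (hs : (A - 1) ^ s = 0)
    (hmin : ∀ k < s, (A - 1) ^ k ≠ 0) :
    p ^ M - 1 ≤ s ∧ s ≤ p ^ M ∧ (s = p ^ M - 1 → finrank K S = s) := by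
  classical
  let ρb : (Q ⧸ ρ.ker) →* Module.End K S := QuotientGroup.lift ρ.ker ρ le_rfl
  have hmk : ∀ g : Q, ρb (g : Q ⧸ ρ.ker) = ρ g := fun g => rfl
  have hinj : Function.Injective ρb := by
    intro a b hab
    induction a using QuotientGroup.induction_on with | _ a => ?_
    induction b using QuotientGroup.induction_on with | _ b => ?_
    rw [hmk, hmk] at hab
    apply QuotientGroup.eq.mpr
    show ρ (a⁻¹ * b) = 1
    rw [map_mul, ← hab, ← map_mul]
    simp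
  have hLθ : ∀ a ∈ ρ.ker, θ a ∈ ρ.ker := by
    intro a ha
    have h3 : ρ a = 1 := ha
    show ρ (θ a) = 1
    rw [← hA, h3, mul_one, h1]
  let τb : (Q ⧸ ρ.ker) →* (Q ⧸ ρ.ker) := QuotientGroup.map ρ.ker ρ.ker θ.toMonoidHom hLθ
  have hτmk : ∀ g : Q, τb (g : Q ⧸ ρ.ker) = ((θ g : Q) : Q ⧸ ρ.ker) := fun g => rfl
  have hit : ∀ (i : ℕ) (g : Q), τb^[i] (g : Q ⧸ ρ.ker) = (((θ ^ i) g : Q) : Q ⧸ ρ.ker) := by
    intro i g
    induction i with
    | zero => rfl
    | succ i ih =>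
      rw [Function.iterate_succ_apply', ih, hτmk, pow_succ']
      rfl
  have hpow : ∀ (i : ℕ) (g : Q), ρ ((θ ^ i) g) = ρ g → ∀ k : ℕ, ρ ((θ ^ (i * k)) g) = ρ g := by
    intro i g hg k
    induction k with
    | zero => simp
    | succ k ih =>
      have e : θ ^ (i * (k + 1)) = θ ^ i * θ ^ (i * k) := by
        rw [← pow_add]; congr 1; ring
      rw [e, MulAut.mul_apply, ← apply_pow_eq ρ hA i, ih, apply_pow_eq ρ hA i, hg]
  have hy : ∀ (i : ℕ) (g : Q), 0 < i → i < p ^ M → ρ ((θ ^ i) g) = ρ g → ρ ((θ ^ p ^ (M - 1)) g) = ρ g := by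
    intro i g hi0 hi hg
    obtain ⟨k, hk⟩ := exists_arith hp.out hM hi0 hi
    have h3 := hpow i g hg k
    have h4 : θ ^ (i * k) = θ ^ p ^ (M - 1) := by
      rw [pow_eq_pow_mod (i * k) hθ, hk, ← pow_eq_pow_mod _ hθ]
    rwa [h4] at h3
  have hθ1 : ∀ g : Q, ρ (θ g) = ρ g → ρ ((θ ^ p ^ (M - 1)) g) = ρ g := by
    intro g hg
    have h3 := hpow 1 g (by simpa using hg) (p ^ (M - 1))
    simpa using h3
  have hirrb : ∀ W : Submodule K S, (∀ g, W.map (ρb g) ≤ W) → W = ⊥ ∨ W = ⊤ :=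
    fun W h => hirr W (fun g => h (g : Q ⧸ ρ.ker))
  letI : Fintype (Q ⧸ ρ.ker) := Fintype.ofFinite _
  have hNb : (Fintype.card (Q ⧸ ρ.ker) : K) ≠ 0 := by
    intro h0
    apply hN
    have h3 : Nat.card Q = Nat.card (Q ⧸ ρ.ker) * Nat.card ρ.ker :=
      Subgroup.card_eq_card_quotient_mul_card_subgroup ρ.ker
    rw [← Nat.card_eq_fintype_card, h3, Nat.card_eq_fintype_card (α := Q ⧸ ρ.ker)]
    push_cast
    rw [h0, zero_mul]
  have hτn : ∀ g, τb^[p ^ M] g = g := by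
    intro g
    induction g using QuotientGroup.induction_on with | _ g => ?_
    rw [hit, hθ]
    rfl
  have hτ : ∀ g, A * ρb g * A' = ρb (τb g) := by
    intro g
    induction g using QuotientGroup.induction_on with | _ g => ?_
    exact hA g
  have hτinv : ∀ g, τb g⁻¹ = (τb g)⁻¹ := fun g => map_inv τb g
  have hfix : ∀ g, τb g = g → ∃ μ : K, ρb g = μ • 1 := by
    intro g hg
    induction g using QuotientGroup.induction_on with | _ g => ?_
    have h3 : ρ (θ g) = ρ g := congrArg ρb hg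
    exact hscal g (hθ1 g h3)
  have hfree : ∀ g, τb g ≠ g → ∀ i, 0 < i → i < p ^ M → τb^[i] g ≠ g := by
    intro g hg i hi0 hi h
    induction g using QuotientGroup.induction_on with | _ g => ?_
    rw [hit] at h
    have h3 : ρ ((θ ^ i) g) = ρ g := congrArg ρb h
    obtain ⟨μ, hμ⟩ := hscal g (hy i g hi0 hi h3)
    apply hg
    apply hinj
    rw [hmk, ← hτ, hmk, hμ]
    simp [h1]
  exact crit_core ρb hirrb hNb A A' h1 h2 τb hM hτn hτ hτinv hfix hfree hAp hA1 s hs hmin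

end CritQuot

/-- A fixed intertwiner. -/
theorem exists_fixed_hom {p : ℕ} [hp : Fact p.Prime] [CharP K p] (ρ : Q →* Module.End K W) (ρS : Q →* Module.End K S)
    (X Y : Module.End K W) (hYX : Y * X = 1) (A A' : Module.End K S) (hAA : A' * A = 1) (θ : MulAut Q)
    (hX : ∀ g, X * ρ g * Y = ρ (θ g)) (hA : ∀ g, A * ρS g * A' = ρS (θ g)) {M : ℕ} (hXp : X ^ p ^ M = 1)
    (hA'p : A' ^ p ^ M = 1) (f₀ : S →ₗ[K] W) (hf₀ : ∀ g w, f₀ (ρS g w) = ρ g (f₀ w)) (hf₀0 : f₀ ≠ 0) :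
    ∃ f : S →ₗ[K] W, f ≠ 0 ∧ (∀ g w, f (ρS g w) = ρ g (f w)) ∧ ∀ w, X (f w) = f (A w) := by
  classical
  let T : Submodule K (S →ₗ[K] W) :=
    { carrier := {f | ∀ g w, f (ρS g w) = ρ g (f w)}
      add_mem' := by
        intro a b ha hb g w
        simp only [LinearMap.add_apply, map_add, ha g w, hb g w]
      zero_mem' := by
        intro g w
        simp
      smul_mem' := by
        intro c a ha g w
        simp only [LinearMap.smul_apply, map_smul, ha g w] }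
  have hTmem : ∀ f, f ∈ T ↔ ∀ g w, f (ρS g w) = ρ g (f w) := fun f => Iff.rfl
  let B₀ : (S →ₗ[K] W) →ₗ[K] (S →ₗ[K] W) :=
    { toFun := fun f => X ∘ₗ f ∘ₗ A'
      map_add' := by
        intro a b
        ext w
        simp
      map_smul' := by
        intro c a
        ext w
        simp }
  have hB₀ : ∀ f, B₀ f = X ∘ₗ f ∘ₗ A' := fun f => rfl
  have hB₀T : ∀ f ∈ T, B₀ f ∈ T := by
    intro f hf g w
    have h1 : A' * ρS g = ρS (θ⁻¹ g) * A' := by
      have h2 := hA (θ⁻¹ g)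
      have e : θ (θ⁻¹ g) = g := by simp
      rw [e] at h2
      rw [← h2]
      calc A' * (A * ρS (θ⁻¹ g) * A') = (A' * A) * ρS (θ⁻¹ g) * A' := by simp only [mul_assoc]
        _ = ρS (θ⁻¹ g) * A' := by rw [hAA, one_mul]
    have h3 : ∀ h, X * ρ h = ρ (θ h) * X := by
      intro h
      rw [← hX h]
      calc X * ρ h = X * ρ h * (Y * X) := by rw [hYX, mul_one]
        _ = X * ρ h * Y * X := by simp only [mul_assoc]
    have e : θ (θ⁻¹ g) = g := by simp
    have h4 := congrArg (fun F => F w) h1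
    simp only [Module.End.mul_apply] at h4
    have h5 := congrArg (fun F => F (f (A' w))) (h3 (θ⁻¹ g))
    simp only [Module.End.mul_apply, e] at h5
    show X (f (A' (ρS g w))) = ρ g (X (f (A' w)))
    rw [h4, hf, h5]
  let B : Module.End K T := B₀.restrict hB₀T
  have hBc : ∀ (v : T), ((B v : T) : S →ₗ[K] W) = X ∘ₗ v.1 ∘ₗ A' := fun v => rfl
  have hBpow : ∀ (k : ℕ) (v : T), (((B ^ k) v : T) : S →ₗ[K] W) = (X ^ k) ∘ₗ v.1 ∘ₗ (A' ^ k) := by
    intro k v
    induction k with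
    | zero =>
      ext w
      simp
    | succ k ih =>
      rw [pow_succ', Module.End.mul_apply, hBc, ih, pow_succ' X k, pow_succ A' k]
      rfl
  have hBp : B ^ p ^ M = 1 := by
    ext v w
    rw [hBpow, hXp, hA'p]
    simp
  have hnil : (B - 1) ^ p ^ M = 0 := by
    rw [end_sub_one_pow (p := p), hBp]
    exact sub_self (1 : Module.End K T)
  haveI : Nontrivial T := ⟨⟨⟨f₀, hf₀⟩, 0, fun h => hf₀0 (congrArg Subtype.val h)⟩⟩
  obtain ⟨v, hv0, hv⟩ := exists_ker_of_pow_eq_zero hnil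
  have hBv : B v = v := by
    have : B v - v = 0 := hv
    exact sub_eq_zero.mp this
  refine ⟨v.1, fun h => hv0 (Subtype.ext h), v.2, fun w => ?_⟩
  have h1 : X ∘ₗ v.1 ∘ₗ A' = v.1 := by
    rw [← hBc, hBv]
  have h2 := congrArg (fun F : S →ₗ[K] W => F (A w)) h1
  have h3 : A' (A w) = w := by
    have := congrArg (fun F => F w) hAA
    simpa using this
  simp only [LinearMap.comp_apply, h3] at h2
  exact h2

section Main

variable [Fintype Q] [IsAlgClosed K] [FiniteDimensional K W] [Nontrivial W] {p q : ℕ} [hp : Fact p.Prime]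
  [hq : Fact q.Prime] [CharP K p]

theorem pow_rel {X Y : Module.End K W} (ρ : Q →* Module.End K W) (hYX : Y * X = 1) {τ : MulAut Q}
    (hτ : ∀ g, X * ρ g * Y = ρ (τ g)) (i : ℕ) (g : Q) : ρ g * X ^ i = X ^ i * ρ ((τ ^ i)⁻¹ g) := by
  have h1 : X ^ i * ρ ((τ ^ i)⁻¹ g) * Y ^ i = ρ g := by
    rw [apply_pow_eq ρ hτ]
    simp
  have h2 : Y ^ i * X ^ i = 1 := pow_mul_pow_of_inv hYX i
  rw [← h1]
  calc X ^ i * ρ ((τ ^ i)⁻¹ g) * Y ^ i * X ^ i = X ^ i * ρ ((τ ^ i)⁻¹ g) * (Y ^ i * X ^ i) := by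
        simp only [mul_assoc]
    _ = X ^ i * ρ ((τ ^ i)⁻¹ g) := by rw [h2, mul_one]
    _ = _ := by simp [h1]

/-- **Hall--Higman Theorem B**: the main reduction. -/
theorem hhb_core (hQ : IsPGroup q Q) (hqK : (q : K) ≠ 0) (ρ : Q →* Module.End K W) (X Y : Module.End K W)
    (hXY : X * Y = 1) (hYX : Y * X = 1) (τ : MulAut Q) {n : ℕ} (hn : 0 < n) (hXn : X ^ p ^ n = 1)
    (hτn : τ ^ p ^ n = 1) (hτ : ∀ g, X * ρ g * Y = ρ (τ g))
    (hP : ∀ g, (τ ^ p ^ (n - 1)) g = g → ∀ h, g * h = h * g) (hnt : ∃ g, ρ ((τ ^ p ^ (n - 1)) g) ≠ ρ g)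
    (s : ℕ) (hs : (X - 1) ^ s = 0) (hmin : ∀ k < s, (X - 1) ^ k ≠ 0) :
    s = p ^ n ∨ ∃ n₀ b : ℕ, 1 ≤ n₀ ∧ n₀ ≤ n ∧ 1 ≤ b ∧ p ^ n₀ - 1 = q ^ b ∧ (∃ a c : Q, a * c ≠ c * a) ∧
      p ^ (n - n₀) * (p ^ n₀ - 1) ≤ s := by
  classical
  have hpq : p ≠ q := by
    rintro rfl
    exact hqK (CharP.cast_eq_zero K p)
  obtain ⟨kQ, hkQ⟩ := IsPGroup.iff_card.mp hQ
  have hN : (Fintype.card Q : K) ≠ 0 := by
    rw [← Nat.card_eq_fintype_card, hkQ]
    push_cast
    exact pow_ne_zero _ hqK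
  -- the upper bound
  have hupper : s ≤ p ^ n := by
    by_contra hcon
    refine hmin (p ^ n) (by omega) ?_
    rw [end_sub_one_pow (p := p), hXn, sub_self]
  -- an irreducible section
  obtain ⟨g₀, hg₀⟩ := hnt
  obtain ⟨S₀, hS0, hinv, hmin', v₀, hv₀S, hv₀⟩ := exists_irr_sep ρ hN _ _ hg₀
  let ρS : Q →* Module.End K S₀ :=
    { toFun := fun g => (ρ g).restrict (hinv g)
      map_one' := by
        ext v
        simp
      map_mul' := by
        intro a b
        ext v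
        simp }
  have hρS : ∀ (g : Q) (v : S₀), ((ρS g v : S₀) : W) = ρ g v.1 := fun g v => rfl
  haveI hSnt : Nontrivial S₀ := Submodule.nontrivial_iff_ne_bot.mpr hS0
  have hirrS : ∀ W' : Submodule K S₀, (∀ g, W'.map (ρS g) ≤ W') → W' = ⊥ ∨ W' = ⊤ := by
    intro W' hW'
    have h1 : W'.map S₀.subtype ≤ S₀ := by
      rintro _ ⟨v, -, rfl⟩
      exact v.2
    have h2 : ∀ g, ∀ v ∈ W'.map S₀.subtype, ρ g v ∈ W'.map S₀.subtype := by
      rintro g _ ⟨v, hv, rfl⟩
      exact ⟨ρS g v, hW' g ⟨v, hv, rfl⟩, rfl⟩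
    rcases hmin' _ h1 h2 with h3 | h3
    · left
      rw [eq_bot_iff]
      intro v hv
      have h4 : (v : W) ∈ W'.map S₀.subtype := ⟨v, hv, rfl⟩
      rw [h3] at h4
      exact (Submodule.mem_bot K).mpr (Subtype.ext ((Submodule.mem_bot K).mp h4))
    · right
      rw [eq_top_iff]
      intro v _
      have h4 : (v : W) ∈ W'.map S₀.subtype := by rw [h3]; exact v.2
      obtain ⟨u, hu, e⟩ := h4
      have : u = v := Subtype.ext e
      rwa [← this]
  let y : MulAut Q := τ ^ p ^ (n - 1)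
  have hntS : ρS (y g₀) ≠ ρS g₀ := by
    intro h
    apply hv₀
    have := congrArg (fun F => ((F ⟨v₀, hv₀S⟩ : S₀) : W)) h
    exact this
  -- the period
  have hadd : ∀ i j, TW ρS (τ ^ i) → TW ρS (τ ^ j) → TW ρS (τ ^ (i + j)) := by
    intro i j hi hj
    rw [pow_add]
    exact TW_mul hi hj
  have hsub : ∀ i j, TW ρS (τ ^ (i + j)) → TW ρS (τ ^ i) → TW ρS (τ ^ j) := by
    intro i j hij hi
    have e : τ ^ j = (τ ^ i)⁻¹ * τ ^ (i + j) := by rw [pow_add]; group
    rw [e]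
    exact TW_mul (TW_inv hi) hij
  have h0 : TW ρS (τ ^ 0) := by simpa using TW_one ρS
  have hpn : TW ρS (τ ^ p ^ n) := by rw [hτn]; exact TW_one ρS
  obtain ⟨l, hl0, hlK, hPl, hlmin⟩ := exists_period (P := fun i => TW ρS (τ ^ i)) hadd hsub h0
    (pow_pos hp.out.pos n) hpn
  obtain ⟨a, han, rfl⟩ := (Nat.dvd_prime_pow hp.out).mp hlK
  -- the sum does not vanish
  have hSum : ∀ f : S₀ →ₗ[K] W, (∀ g w, f (ρS g w) = ρ g (f w)) → ∀ w, f w ≠ 0 →
      ∑ i ∈ range (p ^ a), (X ^ i) (f w) ≠ 0 := by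
    intro f hf w hfw h
    let Pr : Module.End K W := ∑ g, LinearMap.trace K S₀ (ρS g⁻¹) • ρ g
    have hPr0 : (finrank K S₀ : K) • Pr (f w) = (Fintype.card Q : K) • f w := by
      have h1 := congrArg (fun F => f (F w)) (expansion ρS hirrS 1)
      simp only [mul_one, LinearMap.smul_apply, LinearMap.sum_apply, map_smul, map_sum, hf] at h1
      simp only [Pr, LinearMap.sum_apply, LinearMap.smul_apply]
      simpa using h1
    have hPri : ∀ i ∈ range (p ^ a), i ≠ 0 → Pr ((X ^ i) (f w)) = 0 := by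
      intro i hi hi0
      have hilt := Finset.mem_range.mp hi
      have hnot : ¬ TW ρS (τ ^ i)⁻¹ := by
        intro h1
        have h2 := TW_inv h1
        rw [inv_inv] at h2
        exact hlmin i (Nat.pos_of_ne_zero hi0) hilt h2
      have h3 := orth ρS hirrS (τ ^ i)⁻¹ hnot w
      have h4 := congrArg (fun v => (X ^ i) (f v)) h3
      simp only [map_sum, map_smul, hf, map_zero] at h4
      simp only [Pr, LinearMap.sum_apply, LinearMap.smul_apply]
      rw [← h4]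
      refine Finset.sum_congr rfl fun g _ => ?_
      congr 1
      have := congrArg (fun F => F (f w)) (pow_rel ρ hYX hτ i g)
      simpa [Module.End.mul_apply] using this
    have h1 : Pr (∑ i ∈ range (p ^ a), (X ^ i) (f w)) = Pr (f w) := by
      rw [map_sum, Finset.sum_eq_single 0]
      · simp
      · intro i hi hi0
        exact hPri i hi hi0
      · intro hcon
        exact absurd (Finset.mem_range.mpr (pow_pos hp.out.pos a)) hcon
    rw [h, map_zero] at h1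
    rw [← h1, smul_zero] at hPr0
    exact hfw ((smul_eq_zero.mp hPr0.symm).resolve_left hN)
  -- the power of `X - 1`
  have hgeo : ∀ u, ∑ i ∈ range (p ^ a), (X ^ i) u = ((X - 1) ^ (p ^ a - 1)) u := by
    intro u
    rw [← end_geom (p := p), LinearMap.sum_apply]
  have hlowX : ∀ e, (X - 1) ^ e ≠ 0 → e < s := by
    intro e he
    by_contra hcon
    exact he (pow_eq_zero_of_le (by omega) hs)
  rcases Nat.lt_or_ge a n with ha | ha
  swap
  · -- the whole orbit is free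
    left
    have ha' : a = n := le_antisymm han ha
    subst ha'
    obtain ⟨w, hw⟩ := exists_ne (0 : S₀)
    have h1 := hSum S₀.subtype (fun g w => rfl) w (by simpa using hw)
    rw [hgeo] at h1
    have h2 : (X - 1) ^ (p ^ a - 1) ≠ 0 := by
      intro h3
      rw [h3] at h1
      exact h1 rfl
    have h3 := hlowX _ h2
    omega
  -- the stabilizer
  set M := n - a with hMdef
  have hM : 0 < M := by omega
  have hnaM : a + M = n := by omega
  let θ : MulAut Q := τ ^ p ^ a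
  have hpM : p ^ a * p ^ M = p ^ n := by rw [← pow_add, hnaM]
  have hθM : θ ^ p ^ M = 1 := by
    show (τ ^ p ^ a) ^ p ^ M = 1
    rw [← pow_mul, hpM, hτn]
  have hθy : θ ^ p ^ (M - 1) = y := by
    show (τ ^ p ^ a) ^ p ^ (M - 1) = τ ^ p ^ (n - 1)
    rw [← pow_mul, ← pow_add]
    congr 2
    omega
  obtain ⟨A, A', hAA', hA'A, hAθ⟩ := hPl
  have hAN : ∃ μ : K, A ^ p ^ M = μ • 1 := by
    refine schur_scalar ρS hirrS _ (fun g => ?_)
    have h1 := apply_pow_eq ρS hAθ (p ^ M) g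
    rw [hθM] at h1
    have h2 : A' ^ p ^ M * A ^ p ^ M = 1 := pow_mul_pow_of_inv hA'A _
    calc ρS g * A ^ p ^ M = A ^ p ^ M * ρS g * A' ^ p ^ M * A ^ p ^ M := by rw [h1]; rfl
      _ = A ^ p ^ M * ρS g * (A' ^ p ^ M * A ^ p ^ M) := by simp only [mul_assoc]
      _ = A ^ p ^ M * ρS g := by rw [h2, mul_one]
  obtain ⟨μ, hμ⟩ := hAN
  have hμ0 : μ ≠ 0 := by
    rintro rfl
    have h2 : A' ^ p ^ M * A ^ p ^ M = 1 := pow_mul_pow_of_inv hA'A _
    rw [hμ, zero_smul, mul_zero] at h2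
    exact zero_ne_one h2
  obtain ⟨ν, hν⟩ := IsAlgClosed.exists_pow_nat_eq μ⁻¹ (pow_pos hp.out.pos M)
  have hν0 : ν ≠ 0 := by
    rintro rfl
    rw [zero_pow (pow_pos hp.out.pos M).ne'] at hν
    exact (inv_ne_zero hμ0) hν.symm
  let A₀ : Module.End K S₀ := ν • A
  let A₀' : Module.End K S₀ := ν⁻¹ • A'
  have h₀1 : A₀ * A₀' = 1 := by
    simp only [A₀, A₀', smul_mul_smul_comm, hAA', mul_inv_cancel₀ hν0, one_smul]
  have h₀2 : A₀' * A₀ = 1 := by
    simp only [A₀, A₀', smul_mul_smul_comm, hA'A, inv_mul_cancel₀ hν0, one_smul]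
  have h₀θ : ∀ g, A₀ * ρS g * A₀' = ρS (θ g) := by
    intro g
    rw [← hAθ]
    simp only [A₀, A₀', smul_mul_assoc, mul_smul_comm, smul_smul, inv_mul_cancel₀ hν0, mul_inv_cancel₀ hν0, one_smul]
  have h₀p : A₀ ^ p ^ M = 1 := by
    simp only [A₀]
    rw [smul_pow, hμ, smul_smul, hν, inv_mul_cancel₀ hμ0, one_smul]
  have h₀'p : A₀' ^ p ^ M = 1 := by
    have h1 : A₀' ^ p ^ M * A₀ ^ p ^ M = 1 := pow_mul_pow_of_inv h₀2 _
    rwa [h₀p, mul_one] at h1
  have hA₀1 : A₀ ≠ 1 := by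
    intro h1
    have h₀' : A₀' = 1 := by rw [h1, mul_one] at h₀2; exact h₀2
    apply hntS
    rw [← hθy, ← apply_pow_eq ρS h₀θ, h1, h₀']
    simp
  have hscal : ∀ g, ρS ((θ ^ p ^ (M - 1)) g) = ρS g → ∃ μ : K, ρS g = μ • 1 := by
    intro g hg
    rw [hθy] at hg
    have hker : ∀ a ∈ ρS.ker, y a ∈ ρS.ker := by
      intro a ha
      show ρS (y a) = 1
      rw [← hθy, ← apply_pow_eq ρS h₀θ, show ρS a = 1 from ha, mul_one]
      exact pow_mul_pow_of_inv h₀1 _
    have hyp : ∀ a, (y : Q ≃* Q)^[p ^ 1] a = a := by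
      intro a
      rw [← mulAut_pow_apply]
      have : y ^ p ^ 1 = 1 := by
        show (τ ^ p ^ (n - 1)) ^ p ^ 1 = 1
        rw [← pow_mul, ← pow_add, show n - 1 + 1 = n by omega, hτn]
      rw [this]
      rfl
    have hcop : p.Coprime (Nat.card ρS.ker) := by
      have hd : Nat.card ρS.ker ∣ q ^ kQ := by
        rw [← hkQ]
        exact Subgroup.card_subgroup_dvd_card _
      obtain ⟨c, -, hc⟩ := (Nat.dvd_prime_pow hq.out).mp hd
      rw [hc]
      exact Nat.Coprime.pow_right _ ((Nat.coprime_primes hp.out hq.out).mpr hpq)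
    have hk : g⁻¹ * y g ∈ ρS.ker := by
      show ρS (g⁻¹ * y g) = 1
      rw [map_mul, hg, ← map_mul]
      simp
    obtain ⟨c, hc, hcm⟩ := exists_fix_of_coset ρS.ker y hker hp.out hyp hcop g hk
    have hρc : ρS c = ρS g := by
      have h1 : ρS (g⁻¹ * c) = 1 := hcm
      have h2 : ρS c = ρS g * ρS (g⁻¹ * c) := by rw [← map_mul]; simp
      rw [h2, h1, mul_one]
    rw [← hρc]
    refine schur_scalar ρS hirrS _ (fun h => ?_)
    rw [← map_mul, ← map_mul, hP c hc h]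
  -- the fixed intertwiner
  have hXθ : ∀ g, X ^ p ^ a * ρ g * Y ^ p ^ a = ρ (θ g) := fun g => apply_pow_eq ρ hτ (p ^ a) g
  have hYXa : Y ^ p ^ a * X ^ p ^ a = 1 := pow_mul_pow_of_inv hYX _
  have hX₀p : (X ^ p ^ a) ^ p ^ M = 1 := by rw [← pow_mul, hpM, hXn]
  have hsub0 : S₀.subtype ≠ 0 := by
    intro h
    obtain ⟨w, hw⟩ := exists_ne (0 : S₀)
    apply hw
    have := congrArg (fun F => F w) h
    exact Subtype.ext this
  obtain ⟨f, hf0, hf, hfX⟩ := exists_fixed_hom ρ ρS (X ^ p ^ a) (Y ^ p ^ a) hYXa A₀ A₀' h₀2 θ hXθ h₀θ hX₀p h₀'p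
    S₀.subtype (fun g w => rfl) hsub0
  have hfinj : Function.Injective f := by
    have h1 : LinearMap.ker f = ⊥ := by
      refine (hirrS (LinearMap.ker f) ?_).resolve_right ?_
      · rintro g _ ⟨u, hu, rfl⟩
        rw [LinearMap.mem_ker, hf, LinearMap.mem_ker.mp hu, map_zero]
      · intro h1
        exact hf0 (LinearMap.ker_eq_top.mp h1)
    exact LinearMap.ker_eq_bot.mp h1
  -- the nilpotency of `A₀ - 1`
  have hAnil : ∃ k, (A₀ - 1) ^ k = 0 := ⟨p ^ M, by rw [end_sub_one_pow (p := p), h₀p, sub_self]⟩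
  set s₀ := Nat.find hAnil with hs₀def
  have hs₀ : (A₀ - 1) ^ s₀ = 0 := Nat.find_spec hAnil
  have hmin₀ : ∀ k < s₀, (A₀ - 1) ^ k ≠ 0 := fun k hk => Nat.find_min hAnil hk
  have hNS : (Fintype.card Q : K) ≠ 0 := hN
  obtain ⟨c1, c2, c3⟩ := crit_on_S (p := p) ρS hirrS hNS A₀ A₀' h₀1 h₀2 θ hM hθM h₀θ h₀p hA₀1 hscal s₀ hs₀ hmin₀
  have hs₀1 : 1 ≤ s₀ := by
    by_contra hcon
    have h1 : s₀ = 0 := by omega
    rw [h1, pow_zero] at hs₀
    exact one_ne_zero hs₀
  obtain ⟨k₀, hk₀⟩ : ∃ k₀, s₀ = k₀ + 1 := ⟨s₀ - 1, by omega⟩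
  have hAk := hmin₀ k₀ (by omega)
  obtain ⟨w, hw⟩ : ∃ w, ((A₀ - 1) ^ k₀) w ≠ 0 := by
    by_contra hcon
    push Not at hcon
    exact hAk (LinearMap.ext hcon)
  -- the lower bound
  have hXA : ∀ j (u : S₀), (((X ^ p ^ a - 1 : Module.End K W) ^ j) (f u)) = f (((A₀ - 1 : Module.End K S₀) ^ j) u) := by
    intro j u
    induction j generalizing u with
    | zero => simp
    | succ j ih =>
      rw [pow_succ, Module.End.mul_apply, pow_succ, Module.End.mul_apply]
      have : ((X ^ p ^ a - 1 : Module.End K W)) (f u) = f ((A₀ - 1 : Module.End K S₀) u) := by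
        simp only [LinearMap.sub_apply, Module.End.one_apply, map_sub, hfX]
      rw [this, ih]
  have hlow : p ^ a * s₀ ≤ s := by
    have h1 := hSum f hf (((A₀ - 1) ^ k₀) w) (fun h => hw (hfinj (by rw [h, map_zero])))
    rw [hgeo, ← hXA, ← end_sub_one_pow (p := p)] at h1
    have h2 : (X - 1) ^ (p ^ a - 1 + p ^ a * k₀) ≠ 0 := by
      intro h3
      apply h1
      rw [pow_add, pow_mul] at h3
      have := congrArg (fun F => F (f w)) h3
      simpa [Module.End.mul_apply] using this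
    have h3 := hlowX _ h2
    have hpos : 0 < p ^ a := pow_pos hp.out.pos a
    rw [hk₀, mul_add, mul_one]
    omega
  by_cases hsM : s₀ = p ^ M
  · left
    rw [hsM, hpM] at hlow
    omega
  right
  have hs₀' : s₀ = p ^ M - 1 := by omega
  have hfin := c3 hs₀'
  have hfin1 : finrank K S₀ ≠ 1 := by
    intro h1
    have h2 := pow_finrank_eq_zero hs₀
    rw [h1, pow_one] at h2
    exact hA₀1 (sub_eq_zero.mp h2)
  obtain ⟨b, hb⟩ := finrank_eq_pow_of_irr (K := K) hQ ρS hirrS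
  have hb1 : 1 ≤ b := by
    by_contra hcon
    have h1 : b = 0 := by omega
    rw [h1, pow_zero] at hb
    exact hfin1 hb
  refine ⟨M, b, hM, by omega, hb1, ?_, ?_, ?_⟩
  · rw [← hb, hfin, hs₀']
  · by_contra hcon
    push Not at hcon
    apply hfin1
    have hall : ∀ g, ∃ μ : K, ρS g = μ • 1 := by
      intro g
      refine schur_scalar ρS hirrS _ (fun h => ?_)
      rw [← map_mul, ← map_mul, hcon h g]
    obtain ⟨v, hv⟩ := exists_ne (0 : S₀)
    have h4 : Submodule.span K {v} = ⊤ := by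
      refine (hirrS _ ?_).resolve_left ?_
      · intro g
        rintro _ ⟨u, hu, rfl⟩
        obtain ⟨μ, hμ⟩ := hall g
        simp only [hμ, LinearMap.smul_apply, Module.End.one_apply]
        exact Submodule.smul_mem _ _ hu
      · simpa using hv
    rw [← finrank_top K S₀, ← h4]
    exact finrank_span_singleton hv
  · have e : n - M = a := by omega
    rw [e, ← hs₀']
    exact hlow

end Main

end Cfsg.Agent.Lib.HHB
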