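import Mathlib
import Cfsg.Agent.Lib.HHB.Core
import Cfsg.Agent.Lib.PGroup.AxLemma
import Cfsg.Agent.Lib.PGroup.HHMin

/-!
# Hall--Higman Theorem B: the group-theoretic reduction

In a `p`-soluble group `G` with `O_p(G) = 1`, an element `x` of order `p^(n+1)` acts on a `q`-subgroup `Q`
in the way the main reduction asks for.
-/

set_option autoImplicit false

namespace Cfsg.Agent.Lib.HHB

open Subgroup Cfsg Cfsg.Agent.Lib.Core Cfsg.Agent.Lib.OddLocal

variable {G : Type*} [Group G] [Finite G]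

/-- Conjugation by `x` on an `x`-invariant subgroup. -/
noncomputable def conjOn (Q : Subgroup G) (x : G) (h : ∀ g ∈ Q, x * g * x⁻¹ ∈ Q) : Q ≃* Q :=
  MulEquiv.ofBijective
    ({ toFun := fun g => ⟨x * g * x⁻¹, h g g.2⟩
       map_one' := by
         apply Subtype.ext
         simp
       map_mul' := by
         intro a b
         apply Subtype.ext
         simp [mul_assoc] } : Q →* Q)
    (Finite.injective_iff_bijective.mp (by
      intro a b hab
      have h1 : x * (a : G) * x⁻¹ = x * b * x⁻¹ := congrArg Subtype.val hab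
      apply Subtype.ext
      simpa using h1))

theorem conjOn_coe (Q : Subgroup G) (x : G) (h : ∀ g ∈ Q, x * g * x⁻¹ ∈ Q) (g : Q) :
    ((conjOn Q x h g : Q) : G) = x * g * x⁻¹ := rfl

theorem conjOn_iter (Q : Subgroup G) (x : G) (h : ∀ g ∈ Q, x * g * x⁻¹ ∈ Q) (i : ℕ) (g : Q) :
    (((conjOn Q x h)^[i] g : Q) : G) = x ^ i * g * (x ^ i)⁻¹ := by
  induction i with
  | zero => simp
  | succ i ih =>
    rw [Function.iterate_succ_apply', conjOn_coe, ih, pow_succ']
    group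

theorem exists_inv_qsub {p : ℕ} [hp : Fact p.Prime] (x y : G) (n : ℕ) (hn : x ^ p ^ n = 1) (hyx : y ∈ Subgroup.zpowers x)
    (hy : y ∉ centralizer (pPrimeCore p G : Set G)) :
    ∃ q, q.Prime ∧ ∃ S : Subgroup G, S ≤ pPrimeCore p G ∧ IsPGroup q S ∧ (∀ g ∈ S, x * g * x⁻¹ ∈ S) ∧
      ∃ g ∈ S, y * g * y⁻¹ ≠ g := by
  classical
  by_contra hcon
  push Not at hcon
  set K := pPrimeCore p G with hK
  haveI hKn : K.Normal := pPrimeCore_normal p G
  have hcop : p.Coprime (Nat.card K) := (pPrimeCore_coprime p G).symm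
  let σ : K ≃* K := MulAut.conjNormal x
  have hσc : ∀ a : K, ((σ a : K) : G) = x * a * x⁻¹ := fun a => MulAut.conjNormal_apply x a
  have hσit : ∀ (i : ℕ) (a : K), ((σ^[i] a : K) : G) = x ^ i * a * (x ^ i)⁻¹ := by
    intro i a
    induction i with
    | zero => simp
    | succ i ih =>
      rw [Function.iterate_succ_apply', hσc, ih, pow_succ']
      group
  have hσp : ∀ a, σ^[p ^ n] a = a := by
    intro a
    apply Subtype.ext
    rw [hσit, hn]
    simp
  let C : Subgroup K := (centralizer ({y} : Set G)).subgroupOf K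
  have hCtop : C = ⊤ := by
    rw [← Subgroup.index_eq_one]
    by_contra hne
    obtain ⟨q, hq, hqd⟩ := Nat.exists_prime_and_dvd hne
    haveI : Fact q.Prime := ⟨hq⟩
    obtain ⟨S, hS⟩ := exists_inv_sylow_cop hp.out hcop σ hσp q
    have hSC : (S : Subgroup K) ≤ C := by
      intro a ha
      have h1 := hcon q hq ((S : Subgroup K).map K.subtype) (by
          rintro _ ⟨b, -, rfl⟩
          exact b.2) ((S.2).map _) (by
          rintro _ ⟨b, hb, rfl⟩
          exact ⟨σ b, hS b hb, hσc b⟩) (a : G) ⟨a, ha, rfl⟩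
      show (a : G) ∈ centralizer ({y} : Set G)
      rw [mem_centralizer_singleton_iff]
      rw [mul_inv_eq_iff_eq_mul] at h1
      exact h1.symm
    have h2 : C.index ∣ (S : Subgroup K).index := Subgroup.index_dvd_of_le hSC
    exact S.not_dvd_index (hqd.trans h2)
  apply hy
  rw [mem_centralizer_iff]
  intro k hk
  have h1 : (⟨k, hk⟩ : K) ∈ C := by rw [hCtop]; trivial
  have h2 : k ∈ centralizer ({y} : Set G) := h1
  rw [mem_centralizer_singleton_iff] at h2
  exact h2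

theorem exists_min_qsub (x y : G) (S : Subgroup G) (hS : ∀ g ∈ S, x * g * x⁻¹ ∈ S)
    (hy : ∃ g ∈ S, y * g * y⁻¹ ≠ g) :
    ∃ Q : Subgroup G, Q ≤ S ∧ (∀ g ∈ Q, x * g * x⁻¹ ∈ Q) ∧ (∃ g ∈ Q, y * g * y⁻¹ ≠ g) ∧
      ∀ A : Subgroup G, A ≤ Q → (∀ g ∈ A, x * g * x⁻¹ ∈ A) → A ≠ Q → ∀ g ∈ A, y * g * y⁻¹ = g := by
  classical
  let P : Subgroup G → Prop := fun A => A ≤ S ∧ (∀ g ∈ A, x * g * x⁻¹ ∈ A) ∧ ∃ g ∈ A, y * g * y⁻¹ ≠ g
  have hex : ∃ c, ∃ A, P A ∧ Nat.card A = c := ⟨_, S, ⟨le_rfl, hS, hy⟩, rfl⟩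
  obtain ⟨Q, hQP, hQc⟩ := Nat.find_spec hex
  refine ⟨Q, hQP.1, hQP.2.1, hQP.2.2, fun A hA hAx hne g hg => ?_⟩
  by_contra hcon
  have hlt : Nat.card A < Nat.card Q := by
    have h1 : A < Q := lt_of_le_of_ne hA hne
    exact Set.ncard_lt_ncard h1 (Set.toFinite _)
  rw [hQc] at hlt
  exact Nat.find_min hex hlt ⟨A, ⟨hA.trans hQP.1, hAx, g, hg, hcon⟩, rfl⟩

/-- The group-theoretic reduction for Theorem B. -/
theorem exists_red {p : ℕ} [hp : Fact p.Prime] (hsol : IsPSolvable p G) (hO : pCore p G = ⊥) (x : G) (n : ℕ)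
    (hn : orderOf x = p ^ (n + 1)) :
    ∃ q, q.Prime ∧ q ≠ p ∧ ∃ Q : Subgroup G, IsPGroup q Q ∧ (∀ g ∈ Q, x * g * x⁻¹ ∈ Q) ∧
      (∃ g ∈ Q, x ^ p ^ n * g * (x ^ p ^ n)⁻¹ ≠ g) ∧
      ∀ g ∈ Q, x ^ p ^ n * g * (x ^ p ^ n)⁻¹ = g → ∀ h ∈ Q, g * h = h * g := by
  classical
  set y := x ^ p ^ n with hyd
  have hpos : 0 < orderOf x := by rw [hn]; exact pow_pos hp.out.pos _
  have hy1 : y ≠ 1 := by
    apply pow_ne_one_of_lt_orderOf (pow_pos hp.out.pos n).ne'
    rw [hn]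
    exact Nat.pow_lt_pow_right hp.out.one_lt (by omega)
  have hyp : y ^ p = 1 := by
    rw [hyd, ← pow_mul, ← pow_succ, ← hn, pow_orderOf_eq_one]
  have hyord : orderOf y = p := orderOf_eq_prime hyp hy1
  have hC := Cfsg.Agent.Lib.PGroup.AxLemma.centralizer_pPrimeCore_le
    (Cfsg.Agent.Lib.PSolv.pStep_of_isPSolvable hp.out hsol) hO
  have hcopK : (Nat.card (pPrimeCore p G)).Coprime p := pPrimeCore_coprime p G
  have hyC : y ∉ centralizer (pPrimeCore p G : Set G) := by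
    intro h
    have h1 := hC h
    have h2 : orderOf y ∣ Nat.card (pPrimeCore p G) := Subgroup.orderOf_dvd_natCard _ h1
    rw [hyord] at h2
    exact hp.out.one_lt.ne' (Nat.Coprime.eq_one_of_dvd hcopK.symm h2)
  have hxn : x ^ p ^ (n + 1) = 1 := by rw [← hn, pow_orderOf_eq_one]
  obtain ⟨q, hq, S, hSK, hSq, hSx, hSy⟩ := exists_inv_qsub (p := p) x y (n + 1) hxn
    (Subgroup.npow_mem_zpowers x _) hyC
  obtain ⟨Q, hQS, hQx, hQy, hQmin⟩ := exists_min_qsub x y S hSx hSy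
  have hQq : IsPGroup q Q := hSq.to_le hQS
  have hpq : p ≠ q := by
    rintro rfl
    obtain ⟨g, hg, hgy⟩ := hSy
    have hg1 : g ≠ 1 := by
      rintro rfl
      simp at hgy
    obtain ⟨k, hk⟩ := IsPGroup.iff_card.mp hSq
    have hk0 : k ≠ 0 := by
      rintro rfl
      rw [pow_zero, Subgroup.card_eq_one] at hk
      apply hg1
      rw [hk] at hg
      exact (Subgroup.mem_bot).mp hg
    have h2 : p ∣ Nat.card S := by
      rw [hk]
      exact dvd_pow_self _ hk0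
    have h3 : Nat.card S ∣ Nat.card (pPrimeCore p G) := Subgroup.card_dvd_of_le hSK
    exact hp.out.one_lt.ne' (Nat.Coprime.eq_one_of_dvd hcopK.symm (h2.trans h3))
  refine ⟨q, hq, hpq.symm, Q, hQq, hQx, hQy, ?_⟩
  let σ : Q ≃* Q := conjOn Q x hQx
  have hit : ∀ (i : ℕ) (g : Q), ((σ^[i] g : Q) : G) = x ^ i * g * (x ^ i)⁻¹ := conjOn_iter Q x hQx
  have hcop : y = x ^ p ^ n := rfl
  obtain ⟨h1, -, h3, -⟩ := Cfsg.Agent.Lib.PGroup.HH.min_struct hq hp.out hQq hpq σ (k := p ^ n)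
    (by
      intro g
      apply Subtype.ext
      rw [hit, ← pow_succ, hxn]
      simp)
    (by
      obtain ⟨g, hg, hgy⟩ := hQy
      refine ⟨⟨g, hg⟩, fun h => hgy ?_⟩
      have := congrArg Subtype.val h
      rwa [hit] at this)
    (by
      intro A hA hAne a ha
      apply Subtype.ext
      rw [hit]
      refine hQmin (A.map Q.subtype) ?_ ?_ ?_ (a : G) ⟨a, ha, rfl⟩
      · rintro _ ⟨b, -, rfl⟩
        exact b.2
      · rintro _ ⟨b, hb, rfl⟩
        exact ⟨σ b, hA b hb, rfl⟩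
      · intro h
        apply hAne
        rw [eq_top_iff]
        intro b _
        have h5 : (b : G) ∈ A.map Q.subtype := by rw [h]; exact b.2
        obtain ⟨c, hc, e⟩ := h5
        have : c = b := Subtype.ext e
        rwa [← this])
  intro g hg hgy k hk
  have h4 := h3 ⟨g, hg⟩ (by
    have : (⟨g, hg⟩ : Q)⁻¹ * σ^[p ^ n] ⟨g, hg⟩ = 1 := by
      apply Subtype.ext
      rw [Subgroup.coe_mul, hit]
      simp only [Subgroup.coe_inv, Subgroup.coe_one]
      rw [hgy]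
      simp
    rw [this]
    exact one_mem _)
  have h5 := h1 _ h4 ⟨k, hk⟩
  exact congrArg Subtype.val h5

end Cfsg.Agent.Lib.HHB
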